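import Cfsg.Agent.Schur.TwoGen
import Cfsg.Agent.SymPresent.Cosets
import Mathlib

/-!
# The kernel of a stem extension of an alternating group

For `n ≥ 4`, `n ≠ 6, 7` it has at most two elements.
-/

set_option autoImplicit false

namespace CfsgLib.AltCover

open Equiv Equiv.Perm
open scoped commutatorElement

universe u

section Carmichael

variable {G : Type u} [Group G] {κ : Type} [DecidableEq κ]

theorem mul_sq_rel {x y : G} (hx : x ^ 3 = 1) (hy : y ^ 3 = 1) (h : (x * y) ^ 2 = 1) :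
    x * y = y⁻¹ * x⁻¹ ∧ y * x = x⁻¹ * y⁻¹ := by
  rw [pow_two] at h
  have h1 := eq_inv_of_mul_eq_one_left h
  rw [mul_inv_rev] at h1
  refine ⟨h1, ?_⟩
  have : y * x * (y * x) = 1 := by
    calc y * x * (y * x) = y * (x * y * (x * y)) * y⁻¹ := by group
      _ = 1 := by rw [h]; group
  have h2 := eq_inv_of_mul_eq_one_left this
  rwa [mul_inv_rev] at h2

/-- The group defined by `b i ^ 3 = 1`, `(b i * b j) ^ 2 = 1` has at most `(k + 2)! / 2` elements. -/
theorem card_le_carmichael (b : κ → G) (s : Finset κ) (h3 : ∀ i ∈ s, b i ^ 3 = 1)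
    (h2 : ∀ i ∈ s, ∀ j ∈ s, i ≠ j → (b i * b j) ^ 2 = 1) :
    (Subgroup.closure (b '' (s : Set κ)) : Set G).Finite ∧
      2 * Nat.card (Subgroup.closure (b '' (s : Set κ))) ≤ (s.card + 2).factorial := by
  induction s using Finset.induction_on with
  | empty =>
    rw [Finset.coe_empty, Set.image_empty, Subgroup.closure_empty]
    exact ⟨by rw [Subgroup.coe_bot]; exact Set.finite_singleton 1, by simp⟩
  | @insert m s hm ih =>
    obtain ⟨hfin, hcard⟩ := ih (fun i hi => h3 i (Finset.mem_insert_of_mem hi))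
      (fun i hi j hj => h2 i (Finset.mem_insert_of_mem hi) j (Finset.mem_insert_of_mem hj))
    set H := Subgroup.closure (b '' (s : Set κ)) with hHdef
    let rep : Option (Option (Option {i // i ∈ s})) → G
      | none => 1
      | some none => b m
      | some (some none) => b m * b m
      | some (some (some i)) => b m * (b i.1)⁻¹
    have hbH : ∀ i ∈ s, b i ∈ H := fun i hi => Subgroup.subset_closure ⟨i, hi, rfl⟩
    have hmm := h3 m (Finset.mem_insert_self _ _)
    have hbm : b m * b m = (b m)⁻¹ := by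
      refine eq_inv_of_mul_eq_one_left ?_
      rw [← pow_two, ← pow_succ]; exact hmm
    have hstep : ∀ k, ∀ x ∈ b '' (↑(insert m s) : Set κ), ∃ j, ∃ h ∈ H, rep k * x = h * rep j := by
      rintro k _ ⟨j, hj, rfl⟩
      rw [Finset.coe_insert, Set.mem_insert_iff] at hj
      rcases hj with rfl | hj
      · match k with
        | none => exact ⟨some none, 1, H.one_mem, by simp [rep]⟩
        | some none => exact ⟨some (some none), 1, H.one_mem, by simp [rep]⟩
        | some (some none) => exact ⟨none, 1, H.one_mem, by simp [rep]; rw [← hmm]; simp only [pow_succ, pow_zero, one_mul]⟩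
        | some (some (some ⟨i, hi⟩)) =>
          have hne : j ≠ i := fun h => hm (h ▸ hi)
          obtain ⟨e1, e2⟩ := mul_sq_rel hmm (h3 i (Finset.mem_insert_of_mem hi))
            (h2 j (Finset.mem_insert_self _ _) i (Finset.mem_insert_of_mem hi) hne)
          refine ⟨some (some (some ⟨i, hi⟩)), (b i)⁻¹, H.inv_mem (hbH i hi), ?_⟩
          simp only [rep]
          have hi3 : b i * b i = (b i)⁻¹ := by
            refine eq_inv_of_mul_eq_one_left ?_
            rw [← pow_two, ← pow_succ]; exact h3 i (Finset.mem_insert_of_mem hi)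
          calc b j * (b i)⁻¹ * b j = b j * (b i * b i) * b j := by rw [hi3]
            _ = (b j * b i) * (b i * b j) := by group
            _ = ((b i)⁻¹ * (b j)⁻¹) * ((b j)⁻¹ * (b i)⁻¹) := by rw [← e1, ← e2]
            _ = (b i)⁻¹ * (b j * b j)⁻¹ * (b i)⁻¹ := by group
            _ = (b i)⁻¹ * (b j * (b i)⁻¹) := by rw [hbm, inv_inv, mul_assoc]
      · have hj' : j ∈ insert m s := Finset.mem_insert_of_mem hj
        have hne : m ≠ j := fun h => hm (h ▸ hj)
        obtain ⟨e1, e2⟩ := mul_sq_rel hmm (h3 j hj') (h2 m (Finset.mem_insert_self _ _) j hj' hne)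
        match k with
        | none => exact ⟨none, b j, hbH j hj, by simp [rep]⟩
        | some none =>
          refine ⟨some (some none), (b j)⁻¹, H.inv_mem (hbH j hj), ?_⟩
          simp only [rep]
          rw [e1, hbm]
        | some (some none) =>
          refine ⟨some (some (some ⟨j, hj⟩)), b j, hbH j hj, ?_⟩
          simp only [rep]
          rw [hbm, ← mul_assoc, e2, mul_assoc]
          congr 1
          rw [← mul_inv_rev]
          refine eq_inv_of_mul_eq_one_left ?_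
          rw [← h3 j hj']
          simp only [pow_succ, pow_zero, one_mul, mul_assoc]
        | some (some (some ⟨i, hi⟩)) =>
          by_cases hij : i = j
          · subst hij
            exact ⟨some none, 1, H.one_mem, by simp [rep]⟩
          · have hi' : i ∈ insert m s := Finset.mem_insert_of_mem hi
            obtain ⟨f1, f2⟩ := mul_sq_rel hmm (h3 i hi') (h2 m (Finset.mem_insert_self _ _) i hi' (fun h => hm (h ▸ hi)))
            obtain ⟨g1, g2⟩ := mul_sq_rel (h3 i hi') (h3 j hj') (h2 i hi' j hj' hij)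
            refine ⟨some (some (some ⟨i, hi⟩)), (b i)⁻¹ * b j, H.mul_mem (H.inv_mem (hbH i hi)) (hbH j hj), ?_⟩
            simp only [rep]
            have hi3 : (b i)⁻¹ * (b i)⁻¹ = b i := by
              rw [← mul_inv_rev]
              refine inv_eq_of_mul_eq_one_right ?_
              rw [← h3 i hi']; simp only [pow_succ, pow_zero, one_mul, mul_assoc]
            calc b m * (b i)⁻¹ * b j
                = b m * ((b i)⁻¹ * (b j * b i)) * (b i)⁻¹ := by group
              _ = b m * ((b i)⁻¹ * ((b i)⁻¹ * (b j)⁻¹)) * (b i)⁻¹ := by rw [g2]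
              _ = (b m * b i) * (b j)⁻¹ * (b i)⁻¹ := by rw [← mul_assoc (b i)⁻¹, hi3]; group
              _ = (b i)⁻¹ * ((b m)⁻¹ * (b j)⁻¹) * (b i)⁻¹ := by rw [f1]; group
              _ = (b i)⁻¹ * (b j * b m) * (b i)⁻¹ := by rw [e2]
              _ = (b i)⁻¹ * b j * (b m * (b i)⁻¹) := by group
    obtain ⟨hf, hc⟩ := SymPresent.card_le_of_cosets H hfin _ rep ⟨none, H.one_mem⟩
      (by
        rintro _ ⟨i, hi, rfl⟩
        exact isOfFinOrder_iff_pow_eq_one.2 ⟨3, by norm_num, h3 i hi⟩) hstep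
    refine ⟨hf, ?_⟩
    rw [Fintype.card_option, Fintype.card_option, Fintype.card_option, Fintype.card_coe] at hc
    rw [Finset.card_insert_of_notMem hm, Nat.factorial_succ]
    calc 2 * Nat.card (Subgroup.closure (b '' (↑(insert m s) : Set κ))) ≤ 2 * ((s.card + 1 + 1 + 1) * Nat.card H) :=
          Nat.mul_le_mul_left 2 hc
      _ = (s.card + 1 + 1 + 1) * (2 * Nat.card H) := by ring
      _ ≤ (s.card + 1 + 2) * (s.card + 2).factorial := Nat.mul_le_mul (le_of_eq (by omega)) hcard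

end Carmichael

section Algebra

variable {G : Type u} [Group G]

/-- Two lifts with product of square `z`. -/
theorem key_relation {a b c c' z : G} (hcc : ∀ g, g * c = c * g) (hcc' : ∀ g, g * c' = c' * g)
    (hzc : ∀ g, g * z = z * g) (ha : a ^ 3 = c) (hb : b ^ 3 = c') (hz : (a * b) ^ 2 = z) :
    let p := a * b
    let p' := a⁻¹ * p * a
    let p'' := a⁻¹ * p' * a
    a⁻¹ * p'' * a = p ∧ p' * p'' * p = c * c' ∧ p'' * p' = p' * p'' * ((c * c') ^ 2 * (z ^ 3)⁻¹) ∧
      ((c * c') ^ 2 * (z ^ 3)⁻¹) ^ 2 = 1 ∧ p' ^ 2 = z ∧ p'' ^ 2 = z := by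
  intro p p' p''
  set e := (c * c') ^ 2 * (z ^ 3)⁻¹ with he
  have hzp : p ^ 2 = z := hz
  have hp' : p' ^ 2 = z := by
    calc p' ^ 2 = a⁻¹ * p ^ 2 * a := by simp only [p', pow_two]; group
      _ = z := by rw [hzp, mul_assoc, ← hzc a, inv_mul_cancel_left]
  have hp'' : p'' ^ 2 = z := by
    calc p'' ^ 2 = a⁻¹ * p' ^ 2 * a := by simp only [p'', pow_two]; group
      _ = z := by rw [hp', mul_assoc, ← hzc a, inv_mul_cancel_left]
  have hcyc : a⁻¹ * p'' * a = p := by
    calc a⁻¹ * p'' * a = (a ^ 3)⁻¹ * p * a ^ 3 := by simp only [p'', p', pow_succ, pow_zero]; group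
      _ = p := by rw [ha, mul_assoc, hcc p, inv_mul_cancel_left]
  have hd : p' * p'' * p = c * c' := by
    calc p' * p'' * p = a⁻¹ * p * a⁻¹ * p * (a ^ 2 * p) := by simp only [p'', p', pow_two]; group
      _ = (a⁻¹ * p) * (a⁻¹ * p) * (a ^ 3 * (a⁻¹ * p)) := by simp only [pow_succ, pow_zero]; group
      _ = (a⁻¹ * p) * (a⁻¹ * p) * ((a⁻¹ * p) * c) := by rw [ha, hcc]
      _ = b ^ 3 * c := by simp only [p, inv_mul_cancel_left, pow_succ, pow_zero, one_mul, mul_assoc]
      _ = c * c' := by rw [hb, hcc]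
  have hpp : p' * p'' = c * c' * p⁻¹ := by rw [← hd, mul_inv_cancel_right]
  have hcp : Commute (c * c') p⁻¹ := Commute.mul_left (hcc p⁻¹).symm (hcc' p⁻¹).symm
  have hz3 : ∀ g, g * (z ^ 3)⁻¹ = (z ^ 3)⁻¹ * g := fun g => Commute.inv_right (Commute.pow_right (hzc g) 3)
  have hcc2 : ∀ g, g * (c * c') ^ 2 = (c * c') ^ 2 * g := fun g =>
    Commute.pow_right (Commute.mul_right (hcc g) (hcc' g)) 2
  have hec : ∀ g, g * e = e * g := fun g => (show Commute g ((c * c') ^ 2) from hcc2 g).mul_right (hz3 g)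
  have hcomm : p'' * p' = p' * p'' * e := by
    have h1 : p' * (p'' * p') * p'' = (c * c') ^ 2 * z⁻¹ := by
      calc p' * (p'' * p') * p'' = (p' * p'') ^ 2 := by rw [pow_two]; group
        _ = (c * c') ^ 2 * (p ^ 2)⁻¹ := by rw [hpp, hcp.mul_pow, inv_pow]
        _ = _ := by rw [hzp]
    calc p'' * p' = p'⁻¹ * (p' * (p'' * p') * p'') * p''⁻¹ := by group
      _ = p'⁻¹ * ((c * c') ^ 2 * z⁻¹) * p''⁻¹ := by rw [h1]
      _ = p' * (p' ^ 2)⁻¹ * ((c * c') ^ 2 * z⁻¹) * ((p'' ^ 2)⁻¹ * p'') := by simp only [pow_two]; group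
      _ = p' * (z⁻¹ * ((c * c') ^ 2 * z⁻¹) * z⁻¹) * p'' := by rw [hp', hp'']; group
      _ = p' * e * p'' := by
        rw [← mul_assoc z⁻¹, (show Commute z⁻¹ ((c * c') ^ 2) from (hcc2 z⁻¹)).eq, he]
        simp only [pow_succ, pow_zero, one_mul, mul_inv_rev, mul_assoc]
      _ = p' * p'' * e := by rw [mul_assoc, ← hec p'', ← mul_assoc]
  refine ⟨hcyc, hd, hcomm, ?_, hp', hp''⟩
  have h2 : p'' * (p'' * p') = p' * p'' * p'' * e ^ 2 := by
    calc p'' * (p'' * p') = p'' * (p' * p'' * e) := by rw [hcomm]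
      _ = (p'' * p') * p'' * e := by group
      _ = p' * p'' * (e * p'') * e := by rw [hcomm]; group
      _ = p' * p'' * (p'' * e) * e := by rw [← hec p'']
      _ = _ := by rw [pow_two e]; simp only [mul_assoc]
  rw [← mul_assoc, ← pow_two, hp'', ← hzc p', mul_assoc p' p'' p'', ← pow_two p'', hp''] at h2
  exact left_eq_mul.1 h2

theorem card_zpowers_le_two {e : G} (he : e ^ 2 = 1) : Nat.card (Subgroup.zpowers e) ≤ 2 := by
  rw [Nat.card_zpowers]
  exact orderOf_le_of_pow_eq_one two_pos he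

end Algebra

theorem hom_alternating_eq_one {α : Type} [Fintype α] [DecidableEq α] (h : Fintype.card α ≤ 2 ∨ 5 ≤ Fintype.card α)
    {A : Type u} [CommGroup A] (f : alternatingGroup α →* A) (g : alternatingGroup α) : f g = 1 := by
  rcases h with h | h
  · have : Subsingleton (alternatingGroup α) := by
      rcases subsingleton_or_nontrivial α with hs | hs
      · infer_instance
      · have h1 := two_mul_card_alternatingGroup (α := α)
        rw [Fintype.card_perm] at h1
        have h2 : (Fintype.card α).factorial ≤ 2 := by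
          calc _ ≤ Nat.factorial 2 := Nat.factorial_le h
            _ = 2 := rfl
        exact Fintype.card_le_one_iff_subsingleton.1 (by omega)
    rw [Subsingleton.elim g 1, map_one]
  · have hp : commutator (alternatingGroup α) = ⊤ := by
      haveI := alternatingGroup.isSimpleGroup (α := α) (by rwa [Nat.card_eq_fintype_card])
      rcases IsSimpleGroup.eq_bot_or_eq_top_of_normal (commutator (alternatingGroup α)) inferInstance with hb | ht
      · exfalso
        have hcomm : ∀ x y : alternatingGroup α, x * y = y * x := fun x y =>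
          commutatorElement_eq_one_iff_mul_comm.1 (Subgroup.mem_bot.1 (hb ▸
            Subgroup.commutator_mem_commutator (Subgroup.mem_top x) (Subgroup.mem_top y)))
        have : IsMulCommutative (alternatingGroup α) := ⟨⟨hcomm⟩⟩
        have hn : 4 ≤ Nat.card α := by rw [Nat.card_eq_fintype_card]; omega
        have hc := alternatingGroup.center_eq_bot (α := α) hn
        have htop : Subgroup.center (alternatingGroup α) = ⊤ :=
          eq_top_iff.2 fun x _ => Subgroup.mem_center_iff.2 fun y => hcomm y x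
        rw [htop] at hc
        exact top_ne_bot hc
      · exact ht
    exact MonoidHom.mem_ker.1 (Abelianization.commutator_subset_ker f (hp ▸ Subgroup.mem_top g))

/-- The three-cycle `(p q r)`. -/
def cyc {n : ℕ} (p q r : Fin n) (hpq : p ≠ q) (hpr : p ≠ r) (hqr : q ≠ r) : alternatingGroup (Fin n) :=
  ⟨swap p r * swap p q, by
    rw [mem_alternatingGroup, map_mul, sign_swap hpr, sign_swap hpq]; decide⟩

theorem cyc_conj {n : ℕ} (σ : alternatingGroup (Fin n)) (p q r p' q' r' : Fin n) (h1 h2 h3) (h1' h2' h3')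
    (e1 : (σ : Perm (Fin n)) p = p') (e2 : (σ : Perm (Fin n)) q = q') (e3 : (σ : Perm (Fin n)) r = r') :
    σ * cyc p q r h1 h2 h3 * σ⁻¹ = cyc p' q' r' h1' h2' h3' := by
  refine Subtype.ext ?_
  simp only [cyc, Subgroup.coe_mul, Subgroup.coe_inv, ← e1, ← e2, ← e3]
  have hs : ∀ a b : Fin n, swap ((σ : Perm (Fin n)) a) ((σ : Perm (Fin n)) b) =
      (σ : Perm (Fin n)) * swap a b * (σ : Perm (Fin n))⁻¹ := fun a b => by
    ext x
    simp [swap_apply_def, Perm.mul_apply, Perm.eq_inv_iff_eq]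
    by_cases ha : x = (σ : Perm (Fin n)) a
    · subst ha; simp
    by_cases hb : x = (σ : Perm (Fin n)) b
    · subst hb
      by_cases hab : a = b
      · subst hab; simp
      · simp [Ne.symm hab]
    have ha' : (σ : Perm (Fin n))⁻¹ x ≠ a := fun h => ha (by rw [← h]; simp)
    have hb' : (σ : Perm (Fin n))⁻¹ x ≠ b := fun h => hb (by rw [← h]; simp)
    simp_all
  rw [hs, hs]
  group

theorem centralizer_cyc_split {n : ℕ} (p q r : Fin n) (h1 : p ≠ q) (h2 : p ≠ r) (h3 : q ≠ r)
    (g : alternatingGroup (Fin n)) (hg : g * cyc p q r h1 h2 h3 = cyc p q r h1 h2 h3 * g) :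
    ∃ (j : ℕ) (h : alternatingGroup (Fin n)), g = cyc p q r h1 h2 h3 ^ j * h ∧
      (h : Perm (Fin n)) p = p ∧ (h : Perm (Fin n)) q = q ∧ (h : Perm (Fin n)) r = r := by
  set x := cyc p q r h1 h2 h3 with hx
  have xp : (x : Perm (Fin n)) p = q := by
    simp [hx, cyc, swap_apply_of_ne_of_ne h1.symm h3]
  have xq : (x : Perm (Fin n)) q = r := by simp [hx, cyc]
  have xr : (x : Perm (Fin n)) r = p := by
    simp [hx, cyc, swap_apply_of_ne_of_ne h2.symm h3.symm]
  have xfix : ∀ v, v ≠ p → v ≠ q → v ≠ r → (x : Perm (Fin n)) v = v := fun v a b c => by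
    simp [hx, cyc, swap_apply_of_ne_of_ne a b, swap_apply_of_ne_of_ne a c]
  have hcomm : ∀ h : alternatingGroup (Fin n), h * x = x * h → ∀ v,
      (h : Perm (Fin n)) ((x : Perm (Fin n)) v) = (x : Perm (Fin n)) ((h : Perm (Fin n)) v) := fun h hh v => by
    have := congrArg (fun t : alternatingGroup (Fin n) => (t : Perm (Fin n)) v) hh
    simpa using this
  obtain ⟨j, hj⟩ : ∃ j : ℕ, ((x ^ j : alternatingGroup (Fin n)) : Perm (Fin n)) p = (g : Perm (Fin n)) p := by
    by_cases a : (g : Perm (Fin n)) p = p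
    · exact ⟨0, by simp [a]⟩
    by_cases b : (g : Perm (Fin n)) p = q
    · exact ⟨1, by simp [b, xp]⟩
    by_cases c : (g : Perm (Fin n)) p = r
    · exact ⟨2, by simp [pow_two, c, xp, xq]⟩
    have h' := hcomm g hg p
    rw [xp, xfix _ a b c] at h'
    exact absurd ((g : Perm (Fin n)).injective h') h1.symm
  have hh : ((x ^ j)⁻¹ * g) * x = x * ((x ^ j)⁻¹ * g) := by
    have hc : Commute ((x ^ j)⁻¹ * g) x := ((Commute.pow_left rfl j).inv_left).mul_left (hg : Commute g x)
    exact hc.eq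
  refine ⟨j, (x ^ j)⁻¹ * g, (mul_inv_cancel_left _ _).symm, ?_⟩
  have hp : (((x ^ j)⁻¹ * g : alternatingGroup (Fin n)) : Perm (Fin n)) p = p := by
    rw [Subgroup.coe_mul, Subgroup.coe_inv, Perm.mul_apply, Perm.inv_eq_iff_eq]
    exact hj.symm
  have hq : (((x ^ j)⁻¹ * g : alternatingGroup (Fin n)) : Perm (Fin n)) q = q := by
    rw [← xp, hcomm _ hh, hp]
  refine ⟨hp, hq, ?_⟩
  rw [← xq, hcomm _ hh, hq]

/-- Central elements in the preimage of the centraliser of a three-cycle commute with a lift. -/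
theorem lift_commute {n : ℕ} (hn : n = 5 ∨ 8 ≤ n) {Γ : Type u} [Group Γ] (π : Γ →* alternatingGroup (Fin n))
    (hs : Function.Surjective π) (hc : π.ker ≤ Subgroup.center Γ) (p q r : Fin n) (h1 : p ≠ q) (h2 : p ≠ r)
    (h3 : q ≠ r) (a : Γ) (ha : π a = cyc p q r h1 h2 h3) (γ : Γ)
    (hγ : π γ * cyc p q r h1 h2 h3 = cyc p q r h1 h2 h3 * π γ) : γ * a = a * γ := by
  letI : CommGroup π.ker :=
    { (inferInstance : Group π.ker) with
      mul_comm := fun u v => Subtype.ext ((Subgroup.mem_center_iff.1 (hc u.2) (v : Γ)).symm) }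
  let S := Subgroup.centralizer ({a} : Set Γ)
  obtain ⟨j, h, hgh, hp, hq, hr⟩ := centralizer_cyc_split p q r h1 h2 h3 _ hγ
  -- the pointwise stabiliser
  let T := {v : Fin n // v ≠ p ∧ v ≠ q ∧ v ≠ r}
  have hT : Fintype.card T = n - 3 := by
    rw [Fintype.card_subtype,
      show (Finset.univ.filter fun v : Fin n => v ≠ p ∧ v ≠ q ∧ v ≠ r) = ({p, q, r} : Finset (Fin n))ᶜ by
        ext v; simp [not_or],
      Finset.card_compl, Fintype.card_fin, Finset.card_eq_three.2 ⟨p, q, r, h1, h2, h3, rfl⟩]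
  let ι : alternatingGroup T →* alternatingGroup (Fin n) :=
    ((ofSubtype (p := fun v : Fin n => v ≠ p ∧ v ≠ q ∧ v ≠ r)).comp (alternatingGroup T).subtype).codRestrict _
      fun k => by
        rw [mem_alternatingGroup]
        change sign (ofSubtype (k : Perm T)) = 1
        rw [sign_ofSubtype]; exact mem_alternatingGroup.1 k.2
  have hι : ∀ k, (ι k) * cyc p q r h1 h2 h3 = cyc p q r h1 h2 h3 * ι k := fun k => by
    have e : ∀ v, ¬ (v ≠ p ∧ v ≠ q ∧ v ≠ r) → ((ι k : alternatingGroup (Fin n)) : Perm (Fin n)) v = v :=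
      fun v hv => ofSubtype_apply_of_not_mem _ hv
    exact mul_inv_eq_iff_eq_mul.1 (cyc_conj (ι k) p q r p q r h1 h2 h3 h1 h2 h3
      (e p (by simp)) (e q (by simp)) (e r (by simp)))
  choose s hs' using hs
  have hmem : ∀ k, ⁅s (ι k), a⁆ ∈ π.ker := fun k => by
    rw [MonoidHom.mem_ker, map_commutatorElement, hs', ha, commutatorElement_eq_one_iff_mul_comm]
    exact hι k
  let f : alternatingGroup T →* π.ker := MonoidHom.mk' (fun k => ⟨_, hmem k⟩) fun k k' => Subtype.ext (by
    change ⁅s (ι (k * k')), a⁆ = ⁅s (ι k), a⁆ * ⁅s (ι k'), a⁆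
    obtain ⟨u, hu, hue⟩ : ∃ u ∈ π.ker, s (ι (k * k')) = u * (s (ι k) * s (ι k')) :=
      ⟨s (ι (k * k')) * (s (ι k) * s (ι k'))⁻¹,
        by simp only [MonoidHom.mem_ker, map_mul, map_inv, hs', mul_inv_cancel],
        (inv_mul_cancel_right _ _).symm⟩
    have hu' := Subgroup.mem_center_iff.1 (hc hu)
    have hz := Subgroup.mem_center_iff.1 (hc (hmem k'))
    have h0 : ∀ v, ⁅u * v, a⁆ = ⁅v, a⁆ := fun v => by
      simp only [commutatorElement_def, mul_inv_rev]
      rw [mul_assoc u v a, ← hu' (v * a), ← mul_assoc (v * a * u), mul_assoc (v * a) u v⁻¹, ← hu' v⁻¹, ← mul_assoc,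
        mul_inv_cancel_right]
    rw [hue, h0]
    calc ⁅s (ι k) * s (ι k'), a⁆ = s (ι k) * ⁅s (ι k'), a⁆ * (s (ι k))⁻¹ * ⁅s (ι k), a⁆ := by
          simp only [commutatorElement_def]; group
      _ = _ := by rw [hz (s (ι k)), mul_inv_cancel_right, ← hz])
  obtain ⟨k, hk⟩ : ∃ k, ι k = h := by
    have hpres : ∀ v : Fin n, (v ≠ p ∧ v ≠ q ∧ v ≠ r) ↔ ((h : Perm (Fin n)) v ≠ p ∧ (h : Perm (Fin n)) v ≠ q ∧
        (h : Perm (Fin n)) v ≠ r) := fun v => by
      simp only [ne_eq]
      rw [← (h : Perm (Fin n)).injective.eq_iff (b := p), ← (h : Perm (Fin n)).injective.eq_iff (b := q),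
        ← (h : Perm (Fin n)).injective.eq_iff (b := r), hp, hq, hr]
    let k0 : Perm T := (h : Perm (Fin n)).subtypePerm fun v => (hpres v).symm
    have hk0 : ofSubtype k0 = (h : Perm (Fin n)) := ofSubtype_subtypePerm _ fun v hv => by
      by_contra hcon
      simp only [not_and_or, not_not] at hcon
      rcases hcon with rfl | rfl | rfl
      · exact hv hp
      · exact hv hq
      · exact hv hr
    refine ⟨⟨k0, ?_⟩, Subtype.ext hk0⟩
    rw [mem_alternatingGroup, ← sign_ofSubtype, hk0]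
    exact mem_alternatingGroup.1 h.2
  have hk1 : s (ι k) * a = a * s (ι k) := by
    have := congrArg Subtype.val (hom_alternating_eq_one (by rw [hT]; omega) f k)
    exact commutatorElement_eq_one_iff_mul_comm.1 this
  obtain ⟨u, hu, hγe⟩ : ∃ u ∈ π.ker, γ = u * (a ^ j * s (ι k)) :=
    ⟨γ * (a ^ j * s (ι k))⁻¹, by rw [MonoidHom.mem_ker, map_mul, map_inv, map_mul, map_pow, ha, hs', hk, ← hgh,
      mul_inv_cancel], (inv_mul_cancel_right _ _).symm⟩
  rw [hγe]
  exact (Commute.mul_left ((Subgroup.mem_center_iff.1 (hc hu) a).symm : Commute u a)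
    ((Commute.pow_left rfl j).mul_left hk1)).eq

theorem card_ker_le_two_large {n : ℕ} (hn : n = 5 ∨ 8 ≤ n) {Γ : Type u} [Group Γ] [Finite Γ]
    (π : Γ →* alternatingGroup (Fin n)) (hst : Cfsg.IsStemExtension π) : Nat.card π.ker ≤ 2 := by
  obtain ⟨hs, hc, hd⟩ := hst
  let q0 : Fin n := ⟨0, by omega⟩
  let q1 : Fin n := ⟨1, by omega⟩
  let q2 : Fin n := ⟨2, by omega⟩
  let q3 : Fin n := ⟨3, by omega⟩
  let q4 : Fin n := ⟨4, by omega⟩
  have n01 : q0 ≠ q1 := by simp [q0, q1, Fin.ext_iff]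
  have n02 : q0 ≠ q2 := by simp [q0, q2, Fin.ext_iff]
  have n12 : q1 ≠ q2 := by simp [q1, q2, Fin.ext_iff]
  let κ := {i : Fin n // i ≠ q0 ∧ i ≠ q1}
  let x : κ → alternatingGroup (Fin n) := fun i => cyc q0 q1 i.1 n01 i.2.1.symm i.2.2.symm
  let i2 : κ := ⟨q2, n02.symm, n12.symm⟩
  let i3 : κ := ⟨q3, by simp [q3, q0, Fin.ext_iff], by simp [q3, q1, Fin.ext_iff]⟩
  -- even permutations fixing the first two points
  have hmove : ∀ i j : κ, i ≠ j → ∃ g : alternatingGroup (Fin n), (g : Perm (Fin n)) q0 = q0 ∧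
      (g : Perm (Fin n)) q1 = q1 ∧
      (((g : Perm (Fin n)) q2 = i.1 ∧ (g : Perm (Fin n)) q3 = j.1) ∨
        ((g : Perm (Fin n)) q2 = j.1 ∧ (g : Perm (Fin n)) q3 = i.1)) := by
    intro i j hij
    have hij' : i.1 ≠ j.1 := fun h => hij (Subtype.ext h)
    let σ1 : Perm (Fin n) := swap q2 i.1
    have s10 : σ1 q0 = q0 := swap_apply_of_ne_of_ne n02 i.2.1.symm
    have s11 : σ1 q1 = q1 := swap_apply_of_ne_of_ne n12 i.2.2.symm
    let σ : Perm (Fin n) := swap (σ1 q3) j.1 * σ1
    have h30 : σ1 q3 ≠ q0 := fun h => i3.2.1 (σ1.injective (h.trans s10.symm))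
    have h31 : σ1 q3 ≠ q1 := fun h => i3.2.2 (σ1.injective (h.trans s11.symm))
    have e0 : σ q0 = q0 := by
      simp only [σ, Perm.mul_apply, s10]; exact swap_apply_of_ne_of_ne h30.symm j.2.1.symm
    have e1 : σ q1 = q1 := by
      simp only [σ, Perm.mul_apply, s11]; exact swap_apply_of_ne_of_ne h31.symm j.2.2.symm
    have e2 : σ q2 = i.1 := by
      have h32 : σ1 q3 ≠ i.1 := fun h => by
        have := σ1.injective (h.trans (swap_apply_left q2 i.1).symm)
        simp [q2, q3, Fin.ext_iff] at this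
      simp only [σ, Perm.mul_apply, σ1, swap_apply_left]
      exact swap_apply_of_ne_of_ne h32.symm hij'
    have e3 : σ q3 = j.1 := by simp [σ]
    rcases Int.units_eq_one_or (sign σ) with hσ | hσ
    · exact ⟨⟨σ, hσ⟩, e0, e1, Or.inl ⟨e2, e3⟩⟩
    · refine ⟨⟨σ * swap q2 q3, ?_⟩, ?_, ?_, Or.inr ⟨?_, ?_⟩⟩
      · rw [mem_alternatingGroup, map_mul, hσ, sign_swap (by simp [q2, q3, Fin.ext_iff])]; decide
      · change σ (swap q2 q3 q0) = q0
        rw [swap_apply_of_ne_of_ne n02 i3.2.1.symm, e0]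
      · change σ (swap q2 q3 q1) = q1
        rw [swap_apply_of_ne_of_ne n12 i3.2.2.symm, e1]
      · change σ (swap q2 q3 q2) = j.1
        rw [swap_apply_left, e3]
      · change σ (swap q2 q3 q3) = i.1
        rw [swap_apply_right, e2]
  have hto : ∀ i : κ, ∃ g : alternatingGroup (Fin n), g * x i2 * g⁻¹ = x i := by
    intro i
    by_cases h : i = i2
    · exact ⟨1, by simp [h]⟩
    · obtain ⟨k, hk, hk2⟩ : ∃ k : κ, k ≠ i ∧ k ≠ i2 := by
        by_cases h' : i = i3
        · refine ⟨⟨q4, by simp [q4, q0, Fin.ext_iff], by simp [q4, q1, Fin.ext_iff]⟩, ?_, ?_⟩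
          · rw [h']; exact fun e => absurd (congrArg (fun t : κ => t.1.1) e) (by simp [i3, q4, q3])
          · exact fun e => absurd (congrArg (fun t : κ => t.1.1) e) (by simp [i2, q4, q2])
        · exact ⟨i3, Ne.symm h', fun e => absurd (congrArg (fun t : κ => t.1.1) e) (by simp [i3, i2, q3, q2])⟩
      let σ : Perm (Fin n) := swap q2 k.1 * swap q2 i.1
      have hi2 : i.1 ≠ q2 := fun e => h (Subtype.ext e)
      have hk2' : k.1 ≠ q2 := fun e => hk2 (Subtype.ext e)
      refine ⟨⟨σ, ?_⟩, cyc_conj _ q0 q1 q2 q0 q1 i.1 _ _ _ _ _ _ ?_ ?_ ?_⟩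
      · rw [mem_alternatingGroup, map_mul, sign_swap hk2'.symm, sign_swap hi2.symm]; decide
      · simp [σ, swap_apply_of_ne_of_ne n02 i.2.1.symm, swap_apply_of_ne_of_ne n02 k.2.1.symm]
      · simp [σ, swap_apply_of_ne_of_ne n12 i.2.2.symm, swap_apply_of_ne_of_ne n12 k.2.2.symm]
      · simp [σ, swap_apply_of_ne_of_ne hi2 (fun e => hk (Subtype.ext e.symm))]
  choose g hg using hto
  choose s hs' using hs
  set a0 := s (x i2) with ha0
  let a : κ → Γ := fun i => s (g i) * a0 * (s (g i))⁻¹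
  have hπa : ∀ i, π (a i) = x i := fun i => by simp only [a, map_mul, map_inv, hs', ha0, hg]
  have hcanon : ∀ (i j : κ) (γ : Γ), π γ * x i * (π γ)⁻¹ = x j → γ * a i * γ⁻¹ = a j := by
    intro i j γ h
    have hcm := lift_commute hn π (fun y => ⟨s y, hs' y⟩) hc q0 q1 q2 n01 n02 n12 a0 (hs' (x i2))
      ((s (g j))⁻¹ * γ * s (g i)) (by
        rw [map_mul, map_mul, map_inv, hs', hs', ← mul_inv_eq_iff_eq_mul]
        change (g j)⁻¹ * π γ * g i * x i2 * ((g j)⁻¹ * π γ * g i)⁻¹ = x i2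
        calc (g j)⁻¹ * π γ * g i * x i2 * ((g j)⁻¹ * π γ * g i)⁻¹
            = (g j)⁻¹ * (π γ * (g i * x i2 * (g i)⁻¹) * (π γ)⁻¹) * g j := by group
          _ = x i2 := by rw [hg, h, ← hg j]; group)
    calc γ * a i * γ⁻¹ = s (g j) * (((s (g j))⁻¹ * γ * s (g i)) * a0) * (((s (g j))⁻¹ * γ * s (g i))⁻¹ * (s (g j))⁻¹) := by
          simp only [a]; group
      _ = a j := by rw [hcm]; simp only [a]; group
  have hker : ∀ {u : Γ}, π u = 1 → ∀ γ, γ * u = u * γ := fun hu => Subgroup.mem_center_iff.1 (hc hu)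
  have hcycl : x i2 ^ 3 = 1 := by
    refine Subtype.ext ?_
    have h3 : Equiv.Perm.IsThreeCycle (swap q0 q2 * swap q0 q1) := isThreeCycle_swap_mul_swap_same n02 n01 n12.symm
    rw [Subgroup.coe_pow, Subgroup.coe_one, ← h3.orderOf]
    exact pow_orderOf_eq_one _
  set c := a0 ^ 3 with hcdef
  have hc1 : π c = 1 := by rw [hcdef, map_pow, ha0, hs', hcycl]
  have ha3 : ∀ i, a i ^ 3 = c := fun i => by
    simp only [a]; rw [conj_pow, ← hcdef, hker hc1, mul_inv_cancel_right]
  set z := (a i2 * a i3) ^ 2 with hzdef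
  have hinv23 : (x i2 * x i3) ^ 2 = 1 := by
    refine Subtype.ext (Equiv.ext fun v => ?_)
    have w03 : q0 ≠ q3 := i3.2.1.symm
    have w13 : q1 ≠ q3 := i3.2.2.symm
    have w23 : q2 ≠ q3 := by simp [q2, q3, Fin.ext_iff]
    simp only [x, i2, i3, cyc, Subgroup.coe_pow, Subgroup.coe_mul, pow_two, Perm.mul_apply, Subgroup.coe_one, Perm.one_apply]
    by_cases a0' : v = q0
    · subst a0'; simp [swap_apply_def, n01, n01.symm, n02, n02.symm, n12, n12.symm, w03, w03.symm, w13, w13.symm, w23, w23.symm]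
    by_cases a1' : v = q1
    · subst a1'; simp [swap_apply_def, n01, n01.symm, n02, n02.symm, n12, n12.symm, w03, w03.symm, w13, w13.symm, w23, w23.symm]
    by_cases a2' : v = q2
    · subst a2'; simp [swap_apply_def, n01, n01.symm, n02, n02.symm, n12, n12.symm, w03, w03.symm, w13, w13.symm, w23, w23.symm]
    by_cases a3' : v = q3
    · subst a3'; simp [swap_apply_def, n01, n01.symm, n02, n02.symm, n12, n12.symm, w03, w03.symm, w13, w13.symm, w23, w23.symm]
    simp [swap_apply_of_ne_of_ne, a0', a1', a2', a3']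
  have hz1 : π z = 1 := by rw [hzdef, map_pow, map_mul, hπa, hπa, hinv23]
  have hzz : ∀ i j, i ≠ j → (a i * a j) ^ 2 = z := by
    intro i j hij
    obtain ⟨h, h0, h1, hh⟩ := hmove i j hij
    have key : ∀ i' j' : κ, (h : Perm (Fin n)) q2 = i'.1 → (h : Perm (Fin n)) q3 = j'.1 → (a i' * a j') ^ 2 = z := by
      intro i' j' e2 e3
      rw [← hcanon i2 i' (s h) (by rw [hs']; exact cyc_conj h _ _ _ _ _ _ _ _ _ _ _ _ h0 h1 e2),
        ← hcanon i3 j' (s h) (by rw [hs']; exact cyc_conj h _ _ _ _ _ _ _ _ _ _ _ _ h0 h1 e3),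
        show s h * a i2 * (s h)⁻¹ * (s h * a i3 * (s h)⁻¹) = s h * (a i2 * a i3) * (s h)⁻¹ by group,
        conj_pow, ← hzdef, hker hz1, mul_inv_cancel_right]
    rcases hh with ⟨e2, e3⟩ | ⟨e2, e3⟩
    · exact key i j e2 e3
    · calc (a i * a j) ^ 2 = a i * (a j * a i) ^ 2 * (a i)⁻¹ := by simp only [pow_two]; group
        _ = z := by rw [key j i e2 e3, hker hz1, mul_inv_cancel_right]
  obtain ⟨-, -, -, he2, -, -⟩ := key_relation (hker hc1) (hker hc1) (hker hz1) (ha3 i2) (ha3 i3) hzdef.symm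
  set e := (c * c) ^ 2 * (z ^ 3)⁻¹ with hedef
  have he1 : π e = 1 := by simp [hedef, hc1, hz1]
  let W := Subgroup.zpowers e
  suffices hle : π.ker ≤ W by
    exact (Subgroup.card_le_of_le hle).trans (card_zpowers_le_two he2)
  haveI : W.Normal := ⟨fun u hu γ => by
    obtain ⟨m, rfl⟩ := Subgroup.mem_zpowers_iff.1 hu
    rw [(Commute.zpow_right (show Commute γ e from hker he1 γ) m).eq, mul_inv_cancel_right]
    exact hu⟩
  set w := c * z⁻¹ with hwdef
  have hw1 : π w = 1 := by rw [hwdef, map_mul, map_inv, hc1, hz1]; simp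
  have hcz : Commute c z⁻¹ := Commute.inv_right (show Commute c z from hker hz1 c)
  let mW := QuotientGroup.mk' W
  let b : κ → Γ ⧸ W := fun i => mW (a i * w)
  have hmWe : mW e = 1 := (QuotientGroup.eq_one_iff _).2 (Subgroup.mem_zpowers e)
  have hb3 : ∀ i, b i ^ 3 = 1 := fun i => by
    rw [← map_pow, (show Commute (a i) w from hker hw1 (a i)).mul_pow, ha3, hwdef, hcz.mul_pow, ← hmWe, hedef]
    congr 1
    simp only [inv_pow, ← mul_assoc]
    congr 1
    simp only [pow_succ, pow_zero, one_mul, mul_assoc]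
  have hb2 : ∀ i j, i ≠ j → (b i * b j) ^ 2 = 1 := fun i j hij => by
    rw [← map_mul, ← map_pow,
      show a i * w * (a j * w) = a i * (w * a j) * w by group, ← hker hw1 (a j),
      show a i * (a j * w) * w = a i * a j * (w * w) by group,
      (Commute.mul_right (show Commute (a i * a j) w from hker hw1 _) (hker hw1 (a i * a j))).mul_pow, hzz i j hij, ← hmWe, hedef]
    congr 1
    rw [hwdef, ← mul_assoc (c * z⁻¹) c z⁻¹, mul_assoc c z⁻¹ c, ← hcz.eq, ← mul_assoc c c z⁻¹, mul_assoc (c * c) z⁻¹ z⁻¹,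
      ((hcz.mul_left hcz).mul_right (hcz.mul_left hcz)).mul_pow, ← mul_assoc, hker hz1 ((c * c) ^ 2) |>.symm,
      mul_assoc]
    congr 1
    simp only [pow_succ, pow_zero, one_mul, mul_inv_rev, mul_assoc, mul_inv_cancel_left]
  let P := Subgroup.closure (b '' ((Finset.univ : Finset κ) : Set κ))
  obtain ⟨-, hPcard⟩ := card_le_carmichael b Finset.univ (fun i _ => hb3 i) (fun i _ j _ => hb2 i j)
  have hκ : (Finset.univ : Finset κ).card + 2 = n := by
    rw [Finset.card_univ, Fintype.card_subtype,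
      show (Finset.univ.filter fun i : Fin n => i ≠ q0 ∧ i ≠ q1) = ({q0, q1} : Finset (Fin n))ᶜ by
        ext v; simp [not_or],
      Finset.card_compl, Fintype.card_fin, Finset.card_pair n01]
    omega
  rw [hκ] at hPcard
  have hWker : W ≤ π.ker := Subgroup.zpowers_le.2 he1
  let πW : Γ ⧸ W →* alternatingGroup (Fin n) := QuotientGroup.lift W π hWker
  let res : P →* alternatingGroup (Fin n) := πW.comp P.subtype
  have hbP : ∀ i, b i ∈ P := fun i => Subgroup.subset_closure ⟨i, Finset.mem_univ i, rfl⟩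
  have hres : Function.Surjective res := by
    rw [← MonoidHom.range_eq_top]
    let X : Subgroup (Perm (Fin n)) := res.range.map (alternatingGroup (Fin n)).subtype
    have hxX : ∀ i, ((x i : alternatingGroup (Fin n)) : Perm (Fin n)) ∈ X := fun i =>
      ⟨x i, ⟨⟨b i, hbP i⟩, (map_mul π _ _).trans (by rw [hπa, hw1, mul_one])⟩, rfl⟩
    have hswap : ∀ u : Fin n, u ≠ q0 → swap q0 u * swap q0 q1 ∈ X := fun u hu => by
      by_cases hu1 : u = q1
      · rw [hu1, swap_mul_self]; exact X.one_mem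
      · exact hxX ⟨u, hu, hu1⟩
    let s01 : Perm (Fin n) := swap q0 q1
    have hnorm : ∀ v ∈ X, s01 * v * s01 ∈ X := by
      intro v hv
      obtain ⟨y, ⟨⟨y', hy'⟩, rfl⟩, rfl⟩ := hv
      refine Subgroup.closure_induction (p := fun t ht => s01 * (alternatingGroup (Fin n)).subtype (res ⟨t, ht⟩) * s01 ∈ X)
        ?_ ?_ ?_ ?_ hy'
      · rintro _ ⟨i, -, rfl⟩
        rw [show res ⟨b i, _⟩ = x i from (map_mul π _ _).trans (by rw [hπa, hw1, mul_one])]
        have : s01 * ((x i : alternatingGroup (Fin n)) : Perm (Fin n)) * s01 =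
            (((x i : alternatingGroup (Fin n)) : Perm (Fin n)))⁻¹ := by
          simp only [x, cyc, s01, mul_inv_rev, swap_inv, mul_assoc, swap_mul_self, mul_one]
        exact this ▸ X.inv_mem (hxX i)
      · rw [show (⟨1, P.one_mem⟩ : P) = 1 from rfl, map_one, map_one, mul_one, swap_mul_self]; exact X.one_mem
      · intro t t' ht ht' h h'
        rw [show (⟨t * t', P.mul_mem ht ht'⟩ : P) = ⟨t, ht⟩ * ⟨t', ht'⟩ from rfl, map_mul, map_mul]
        have := X.mul_mem h h'
        simp only [mul_assoc, s01, swap_mul_self_mul] at this ⊢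
        exact this
      · intro t ht h
        rw [show (⟨t⁻¹, P.inv_mem ht⟩ : P) = ⟨t, ht⟩⁻¹ from rfl, map_inv, map_inv]
        have := X.inv_mem h
        simp only [mul_inv_rev, s01, swap_inv, ← mul_assoc] at this
        exact this
    let Pr : Perm (Fin n) → Prop := fun v => v ∈ X ∨ v * s01 ∈ X
    have hleft : ∀ u, u ≠ q0 → ∀ v, Pr v → Pr (swap q0 u * v) := by
      intro u hu v hv
      rcases hv with hv | hv
      · refine Or.inr ?_
        have := X.mul_mem (hswap u hu) (hnorm v hv)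
        simpa only [mul_assoc, s01, swap_mul_self_mul] using this
      · refine Or.inl ?_
        have := X.mul_mem (hswap u hu) (hnorm _ hv)
        simpa only [mul_assoc, s01, swap_mul_self_mul, swap_mul_self, mul_one] using this
    have hall : ∀ v : Perm (Fin n), Pr v := by
      intro v
      induction v using Equiv.Perm.swap_induction_on with
      | one => exact Or.inl X.one_mem
      | swap_mul f i j hij ih =>
        by_cases hi : i = q0
        · subst hi; exact hleft j hij.symm f ih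
        by_cases hj : j = q0
        · subst hj; rw [swap_comm]; exact hleft i hi f ih
        have e : swap i j = swap q0 i * swap q0 j * swap q0 i := by
          have h := Equiv.swap_mul_swap_mul_swap (x := j) (y := q0) (z := i) hj (Ne.symm hij)
          rw [← h, swap_comm j q0]
        rw [e, mul_assoc, mul_assoc]
        exact hleft i hi _ (hleft j hj _ (hleft i hi f ih))
    refine eq_top_iff.2 fun y _ => ?_
    rcases hall (y : Perm (Fin n)) with h | h
    · obtain ⟨y', hy', he⟩ := h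
      exact Subtype.coe_injective he ▸ hy'
    · obtain ⟨y', -, he⟩ := h
      have h' := congrArg sign he
      rw [Subgroup.subtype_apply, mem_alternatingGroup.1 y'.2, map_mul, mem_alternatingGroup.1 y.2, sign_swap n01] at h'
      exact absurd h' (by decide)
  have hcardA : 2 * Nat.card (alternatingGroup (Fin n)) = n.factorial := by
    haveI : Nontrivial (Fin n) := ⟨⟨q0, q1, n01⟩⟩
    rw [Nat.card_eq_fintype_card, two_mul_card_alternatingGroup, Fintype.card_perm, Fintype.card_fin]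
  haveI : Finite P := inferInstance
  have hinj : Function.Injective res := ((Nat.bijective_iff_surjective_and_card res).2 ⟨hres, by
    have := Nat.card_le_card_of_surjective res hres
    have hP' : 2 * Nat.card P ≤ n.factorial := hPcard
    omega⟩).1
  have hcomm : commutator (Γ ⧸ W) ≤ P := by
    rw [commutator_def, Subgroup.commutator_le]
    intro u _ v _
    have hdec : ∀ u : Γ ⧸ W, ∃ p ∈ P, ∃ k, (∀ t, t * k = k * t) ∧ u = p * k := fun u => by
      obtain ⟨⟨p, hp⟩, hpu⟩ := hres (πW u)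
      refine ⟨p, hp, p⁻¹ * u, fun t => ?_, (mul_inv_cancel_left _ _).symm⟩
      have hk : πW (p⁻¹ * u) = 1 := by
        rw [map_mul, map_inv, show πW p = πW u from hpu, inv_mul_cancel]
      obtain ⟨k, hk'⟩ := QuotientGroup.mk'_surjective W (p⁻¹ * u)
      obtain ⟨t, rfl⟩ := QuotientGroup.mk'_surjective W t
      rw [← hk'] at hk ⊢
      rw [← map_mul, ← map_mul, hker hk t]
    obtain ⟨p, hp, k, hk, rfl⟩ := hdec u
    obtain ⟨p', hp', k', hk', rfl⟩ := hdec v
    have : ⁅p * k, p' * k'⁆ = ⁅p, p'⁆ := by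
      simp only [commutatorElement_def, mul_inv_rev]
      calc p * k * (p' * k') * (k⁻¹ * p⁻¹) * (k'⁻¹ * p'⁻¹)
          = p * (k * (p' * k')) * k⁻¹ * p⁻¹ * k'⁻¹ * p'⁻¹ := by group
        _ = p * (p' * k') * p⁻¹ * k'⁻¹ * p'⁻¹ := by rw [← hk (p' * k')]; group
        _ = p * p' * (k' * p⁻¹) * k'⁻¹ * p'⁻¹ := by group
        _ = p * p' * p⁻¹ * p'⁻¹ := by rw [← hk' p⁻¹]; group
    rw [this, commutatorElement_def]
    exact P.mul_mem (P.mul_mem (P.mul_mem hp hp') (P.inv_mem hp)) (P.inv_mem hp')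
  intro u hu
  have hmem : mW u ∈ P := by
    have h : (commutator Γ).map mW ≤ commutator (Γ ⧸ W) := by
      rw [commutator_def, commutator_def, Subgroup.map_commutator]
      exact Subgroup.commutator_mono le_top le_top
    exact hcomm (h (Subgroup.mem_map_of_mem _ (hd hu)))
  have h1 : (⟨mW u, hmem⟩ : P) = 1 := hinj (by
    rw [map_one]; exact (MonoidHom.mem_ker.1 hu : π u = 1))
  exact (QuotientGroup.eq_one_iff _).1 (congrArg Subtype.val h1)

theorem card_ker_le_two_four {Γ : Type u} [Group Γ] [Finite Γ]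
    (π : Γ →* alternatingGroup (Fin 4)) (hst : Cfsg.IsStemExtension π) : Nat.card π.ker ≤ 2 := by
  obtain ⟨hs, hc, hd⟩ := id hst
  let A : alternatingGroup (Fin 4) := cyc 0 1 2 (by decide) (by decide) (by decide)
  let B : alternatingGroup (Fin 4) := cyc 0 1 3 (by decide) (by decide) (by decide)
  obtain ⟨a, ha⟩ := hs A
  obtain ⟨b, hb⟩ := hs B
  have hker : ∀ {u : Γ}, π u = 1 → ∀ γ, γ * u = u * γ := fun hu => Subgroup.mem_center_iff.1 (hc hu)
  have hc1 : π (a ^ 3) = 1 := by rw [map_pow, ha]; decide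
  have hc2 : π (b ^ 3) = 1 := by rw [map_pow, hb]; decide
  have hz1 : π ((a * b) ^ 2) = 1 := by rw [map_pow, map_mul, ha, hb]; decide
  obtain ⟨hcyc, hd3, hcomm, he2, hp', hp''⟩ := key_relation (hker hc1) (hker hc2) (hker hz1) rfl rfl rfl
  set p := a * b with hp0
  set p' := a⁻¹ * p * a with hp1
  set p'' := a⁻¹ * p' * a with hp2
  set e := (a ^ 3 * b ^ 3) ^ 2 * ((p ^ 2) ^ 3)⁻¹ with hedef
  have he1 : π e = 1 := by simp only [hedef, map_mul, map_inv]; rw [map_pow _ (a ^ 3 * b ^ 3) 2, map_mul, hc1, hc2, map_pow _ (p ^ 2) 3, hz1]; simp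
  let W := Subgroup.zpowers e
  suffices hle : π.ker ≤ W by
    exact (Subgroup.card_le_of_le hle).trans (card_zpowers_le_two he2)
  haveI : W.Normal := ⟨fun u hu γ => by
    obtain ⟨m, rfl⟩ := Subgroup.mem_zpowers_iff.1 hu
    rw [(Commute.zpow_right (show Commute γ e from hker he1 γ) m).eq, mul_inv_cancel_right]
    exact hu⟩
  have hWker : W ≤ π.ker := Subgroup.zpowers_le.2 he1
  let m := QuotientGroup.mk' W
  let ρ : Γ ⧸ W →* alternatingGroup (Fin 4) := QuotientGroup.lift W π hWker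
  have hρ : Cfsg.IsStemExtension ρ := by
    refine ⟨fun y => ?_, fun u hu => ?_, fun u hu => ?_⟩
    · obtain ⟨u, rfl⟩ := hs y; exact ⟨m u, rfl⟩
    · obtain ⟨u, rfl⟩ := QuotientGroup.mk'_surjective W u
      refine Subgroup.mem_center_iff.2 fun t => ?_
      obtain ⟨t, rfl⟩ := QuotientGroup.mk'_surjective W t
      rw [← map_mul, ← map_mul, hker hu]
    · obtain ⟨u, rfl⟩ := QuotientGroup.mk'_surjective W u
      have h : (commutator Γ).map m ≤ commutator (Γ ⧸ W) := by
        rw [commutator_def, commutator_def, Subgroup.map_commutator]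
        exact Subgroup.commutator_mono le_top le_top
      exact h (Subgroup.mem_map_of_mem _ (hd hu))
  let P0 := m p
  let P1 := m p'
  let P2 := m p''
  have h12 : Commute P1 P2 := by
    change m p' * m p'' = m p'' * m p'
    rw [← map_mul, ← map_mul, hcomm, map_mul _ (p' * p''), show m e = 1 from (QuotientGroup.eq_one_iff _).2 (Subgroup.mem_zpowers e), mul_one]
  have hP0 : P0 = (P1 * P2)⁻¹ * m (a ^ 3 * b ^ 3) := by
    rw [← hd3, map_mul, map_mul, inv_mul_cancel_left]
  have hdc : ∀ t, t * m (a ^ 3 * b ^ 3) = m (a ^ 3 * b ^ 3) * t := fun t => by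
    obtain ⟨t, rfl⟩ := QuotientGroup.mk'_surjective W t
    rw [← map_mul, ← map_mul, hker (show π (a ^ 3 * b ^ 3) = 1 by rw [map_mul, hc1, hc2, mul_one]) t]
  have h01 : Commute P0 P1 := by
    rw [hP0]; exact (((Commute.refl P1).mul_left h12.symm).inv_left).mul_left (hdc P1).symm
  have h02 : Commute P0 P2 := by
    rw [hP0]; exact ((h12.mul_left (Commute.refl P2)).inv_left).mul_left (hdc P2).symm
  let u1 := P1⁻¹ * P2
  let u2 := P0⁻¹ * P1
  have hsq : ∀ {X Y : Γ ⧸ W}, Commute X Y → X ^ 2 = Y ^ 2 → (X⁻¹ * Y) * (X⁻¹ * Y) = 1 := by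
    intro X Y h hh
    rw [← pow_two, h.inv_left.mul_pow, inv_pow, hh, inv_mul_cancel]
  have hu1 : u1 * u1 = 1 := hsq h12 (by rw [← map_pow, ← map_pow, hp', hp''])
  have hu2 : u2 * u2 = 1 := hsq h01 (by rw [← map_pow, ← map_pow, hp'])
  have hu12 : Commute u1 u2 :=
    (((h01.symm.inv_right).mul_right (Commute.refl P1)).inv_left).mul_left ((h02.symm.inv_right).mul_right h12.symm)
  let U : Subgroup (Γ ⧸ W) :=
    { carrier := {1, u1, u2, u1 * u2}
      one_mem' := Or.inl rfl
      mul_mem' := by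
        have e21 : u2 * u1 = u1 * u2 := hu12.symm.eq
        have e1 : ∀ t, u1 * (u1 * t) = t := fun t => by rw [← mul_assoc, hu1, one_mul]
        have e2 : ∀ t, u2 * (u1 * t) = u1 * (u2 * t) := fun t => by rw [← mul_assoc, e21, mul_assoc]
        have e3 : ∀ t, u2 * (u2 * t) = t := fun t => by rw [← mul_assoc, hu2, one_mul]
        rintro _ _ (rfl | rfl | rfl | rfl) (rfl | rfl | rfl | rfl) <;>
          simp [hu1, hu2, e21, mul_assoc, e1, e2, e3]
      inv_mem' := by
        have i1 : u1⁻¹ = u1 := inv_eq_of_mul_eq_one_right hu1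
        have i2 : u2⁻¹ = u2 := inv_eq_of_mul_eq_one_right hu2
        rintro _ (rfl | rfl | rfl | rfl) <;> simp [i1, i2, hu12.symm.eq] }
  have hu1m : u1 ∈ U := Or.inr (Or.inl rfl)
  have hu2m : u2 ∈ U := Or.inr (Or.inr (Or.inl rfl))
  have hcj : ∀ v, (m a)⁻¹ * m v * m a = m (a⁻¹ * v * a) := fun v => by rw [map_mul, map_mul, map_inv]
  have hA0 : (m a)⁻¹ * P0 * m a = P1 := hcj p
  have hA1 : (m a)⁻¹ * P1 * m a = P2 := hcj p'
  have hA2 : (m a)⁻¹ * P2 * m a = P0 := (hcj p'').trans (congrArg m hcyc)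
  have hgen : Subgroup.closure ({ρ (m a), ρ P0} : Set (alternatingGroup (Fin 4))) = ⊤ := by
    have hP : ρ P0 = A * B := (map_mul π a b).trans (by rw [ha, hb])
    have hAe : ρ (m a) = A := ha
    rw [hAe, hP]
    have hclosed : ∀ (S : Subgroup (alternatingGroup (Fin 4))), A ∈ S → A * B ∈ S → ∀ y, y ∈ S := by
      intro S hA hAB y
      have hV : ∀ y : alternatingGroup (Fin 4), ∃ i : Fin 3, ∃ j k : Fin 2,
          y = A ^ (i : ℕ) * ((A⁻¹ * (A * B) * A) ^ (j : ℕ) * (A * B) ^ (k : ℕ)) := by decide +kernel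
      obtain ⟨i, j, k, rfl⟩ := hV y
      exact S.mul_mem (S.pow_mem hA _) (S.mul_mem (S.pow_mem (S.mul_mem (S.mul_mem (S.inv_mem hA) hAB) hA) _) (S.pow_mem hAB _))
    exact eq_top_iff.2 fun y _ => hclosed _ (Subgroup.subset_closure (Or.inl rfl)) (Subgroup.subset_closure (Or.inr rfl)) y
  have hconjU : ∀ g, ∀ v ∈ U, g * v * g⁻¹ ∈ U := by
    let S : Subgroup (Γ ⧸ W) := Subgroup.normalizer (U : Set (Γ ⧸ W))
    have hsub : ∀ t, (t * u1 * t⁻¹ ∈ U ∧ t * u2 * t⁻¹ ∈ U) → t ∈ S := by
      intro t ⟨h1, h2⟩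
      refine Subgroup.mem_normalizer_iff.2 ?_
      have hmap : ∀ v ∈ U, t * v * t⁻¹ ∈ U := by
        rintro v (rfl | rfl | rfl | rfl)
        · simpa using U.one_mem
        · exact h1
        · exact h2
        · rw [show t * (u1 * u2) * t⁻¹ = (t * u1 * t⁻¹) * (t * u2 * t⁻¹) by group]; exact U.mul_mem h1 h2
      have heq : U.map (MulAut.conj t).toMonoidHom = U :=
        Subgroup.eq_of_le_of_card_ge (by rintro _ ⟨v, hv, rfl⟩; exact hmap v hv)
          (le_of_eq (Subgroup.card_map_of_injective (MulAut.conj t).injective).symm)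
      intro v
      refine ⟨hmap v, fun hv => ?_⟩
      rw [← heq] at hv
      obtain ⟨v', hv', hvv⟩ := hv
      have hvv' : t * v' * t⁻¹ = t * v * t⁻¹ := hvv
      rwa [← mul_left_cancel (mul_right_cancel hvv')]
    have hA : (m a)⁻¹ ∈ S := hsub _ ⟨by
        rw [inv_inv, show (m a)⁻¹ * u1 * m a = ((m a)⁻¹ * P1 * m a)⁻¹ * ((m a)⁻¹ * P2 * m a) by simp only [u1]; group,
          hA1, hA2, show P2⁻¹ * P0 = (u2 * u1)⁻¹ by simp only [u1, u2]; group]
        exact U.inv_mem (U.mul_mem hu2m hu1m),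
      by
        rw [inv_inv, show (m a)⁻¹ * u2 * m a = ((m a)⁻¹ * P0 * m a)⁻¹ * ((m a)⁻¹ * P1 * m a) by simp only [u2]; group,
          hA0, hA1]
        exact hu1m⟩
    have hB : P0 ∈ S := hsub _ ⟨by
        have : Commute P0 u1 := h01.inv_right.mul_right h02
        rw [this.eq, mul_inv_cancel_right]; exact hu1m,
      by
        have : Commute P0 u2 := (Commute.refl P0).inv_right.mul_right h01
        rw [this.eq, mul_inv_cancel_right]; exact hu2m⟩
    have htop : S = ⊤ := by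
      rw [eq_top_iff, ← Schur.exists_lift_mul hρ.1 hgen, sup_le_iff, Subgroup.closure_le]
      refine ⟨?_, fun k hk => hsub k ?_⟩
      · rintro t (rfl | rfl)
        · exact inv_inv (m a) ▸ S.inv_mem hA
        · exact hB
      · have := Subgroup.mem_center_iff.1 (hρ.2.1 hk)
        exact ⟨by rw [← this u1, mul_inv_cancel_right]; exact hu1m, by rw [← this u2, mul_inv_cancel_right]; exact hu2m⟩
    intro g v hv
    exact (Subgroup.mem_normalizer_iff.1 (show g ∈ S from htop ▸ Subgroup.mem_top g) v).1 hv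
  haveI : U.Normal := ⟨fun v hv g => hconjU g v hv⟩
  have hPA : ⁅P0, m a⁆ ∈ U := by
    have e : ⁅P0, m a⁆ = m a * ((m a)⁻¹ * P0 * m a * P0⁻¹) * (m a)⁻¹ := by
      rw [commutatorElement_def]; group
    rw [e, hA0]
    refine hconjU _ _ ?_
    rw [show P1 * P0⁻¹ = u2 by simp only [u2]; exact h01.symm.inv_right.eq]
    exact hu2m
  have hle2 : commutator (Γ ⧸ W) ≤ U := Schur.commutator_le_of_gen hρ hgen U hPA
  intro u hu
  have hmu : m u ∈ U := hle2 (hρ.2.2 hu)
  have hρu : ρ (m u) = 1 := hu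
  have r1 : ρ u1 = ((A⁻¹ * (A * B) * A))⁻¹ * (A⁻¹ * (A⁻¹ * (A * B) * A) * A) := by
    simp only [u1, P1, P2, map_mul, map_inv, hp2, hp1, hp0]
    simp only [show ∀ t, ρ (m t) = π t from fun t => rfl, ha, hb]
  have r2 : ρ u2 = (A * B)⁻¹ * (A⁻¹ * (A * B) * A) := by
    simp only [u2, P1, P0, map_mul, map_inv, hp1, hp0]
    simp only [show ∀ t, ρ (m t) = π t from fun t => rfl, ha, hb]
  have d1 : ((A⁻¹ * (A * B) * A))⁻¹ * (A⁻¹ * (A⁻¹ * (A * B) * A) * A) ≠ 1 := by decide
  have d2 : (A * B)⁻¹ * (A⁻¹ * (A * B) * A) ≠ 1 := by decide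
  have d3 : ((A⁻¹ * (A * B) * A))⁻¹ * (A⁻¹ * (A⁻¹ * (A * B) * A) * A) * ((A * B)⁻¹ * (A⁻¹ * (A * B) * A)) ≠ 1 := by
    decide
  rcases hmu with h | h | h | h
  · exact (QuotientGroup.eq_one_iff _).1 h
  · rw [h, r1] at hρu; exact absurd hρu d1
  · rw [h, r2] at hρu; exact absurd hρu d2
  · rw [h, map_mul, r1, r2] at hρu; exact absurd hρu d3

end CfsgLib.AltCover
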